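import Mathlib
import Cfsg.Prelude.Def_LocalEven

/-!
# Natural `SL₂(F)`-modules inside a group: a function-level normal form (S2779, S2780)
-/

set_option autoImplicit false

namespace Cfsg.Agent.Lib.Helper3.NatSL2

open Subgroup Matrix

variable {G : Type*} [Group G] {F : Type*} [Field F]

structure Nat1 (V L : Subgroup G) (φ : G → Fin 2 → F) (ρ : G → Matrix (Fin 2) (Fin 2) F) :
    Prop where
  norm : ∀ l ∈ L, ∀ v ∈ V, l * v * l⁻¹ ∈ V
  bij : Set.BijOn φ (V : Set G) Set.univ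
  add : ∀ v ∈ V, ∀ w ∈ V, φ (v * w) = φ v + φ w
  act : ∀ l ∈ L, ∀ v ∈ V, φ (l * v * l⁻¹) = (ρ l).mulVec (φ v)
  det : ∀ l ∈ L, (ρ l).det = 1
  mul : ∀ l ∈ L, ∀ m ∈ L, ρ (l * m) = ρ l * ρ m
  surj : ∀ M : Matrix (Fin 2) (Fin 2) F, M.det = 1 → ∃ l ∈ L, ρ l = M
  inj : ∀ l ∈ L, ρ l = 1 → l = 1

theorem nat1_of {V L : Subgroup G} (hnat : Cfsg.IsNaturalSL2Module F V L)
    (hf : L ⊓ centralizer (V : Set G) = ⊥) :
    ∃ (φ : G → Fin 2 → F) (ρ : G → Matrix (Fin 2) (Fin 2) F), Nat1 V L φ ρ := by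
  classical
  obtain ⟨hLV, ρ₀, ψ, hsurj, hker, hact⟩ := hnat
  refine ⟨fun g => if h : g ∈ V then ψ (Additive.ofMul ⟨g, h⟩) else 0,
    fun g => if h : g ∈ L then
      ((ρ₀ ⟨g, h⟩ : SpecialLinearGroup (Fin 2) F) : Matrix (Fin 2) (Fin 2) F) else 1, ?_⟩
  have hn : ∀ l ∈ L, ∀ v ∈ V, l * v * l⁻¹ ∈ V :=
    fun l hl v hv => (mem_normalizer_iff.mp (hLV hl) v).mp hv
  refine ⟨hn, ?_, ?_, ?_, ?_, ?_, ?_, ?_⟩
  · refine ⟨fun _ _ => Set.mem_univ _, ?_, ?_⟩
    · intro v hv w hw h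
      simp only [SetLike.mem_coe] at hv hw
      simp only [dif_pos hv, dif_pos hw] at h
      have := ψ.injective h
      exact congrArg Subtype.val (Additive.ofMul.injective this)
    · intro x _
      obtain ⟨a, ha⟩ := ψ.surjective x
      refine ⟨(Additive.toMul a : V), (Additive.toMul a).2, ?_⟩
      simp only [dif_pos (Additive.toMul a).2]
      exact ha
  · intro v hv w hw
    simp only [dif_pos hv, dif_pos hw, dif_pos (V.mul_mem hv hw)]
    exact map_add ψ (Additive.ofMul ⟨v, hv⟩) (Additive.ofMul ⟨w, hw⟩)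
  · intro l hl v hv
    obtain ⟨w, hw, hw2⟩ := hact ⟨l, hl⟩ ⟨v, hv⟩
    simp only [dif_pos hl, dif_pos hv, dif_pos (hn l hl v hv)]
    have : (⟨l * v * l⁻¹, hn l hl v hv⟩ : V) = w := Subtype.ext hw.symm
    rw [this]
    exact hw2
  · intro l hl
    simp only [dif_pos hl]
    exact (ρ₀ ⟨l, hl⟩).2
  · intro l hl m hm
    simp only [dif_pos hl, dif_pos hm, dif_pos (L.mul_mem hl hm)]
    have : ρ₀ (⟨l, hl⟩ * ⟨m, hm⟩) = ρ₀ ⟨l, hl⟩ * ρ₀ ⟨m, hm⟩ := map_mul _ _ _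
    exact congrArg Subtype.val this
  · intro M hM
    obtain ⟨l, hl⟩ := hsurj ⟨M, hM⟩
    refine ⟨l.1, l.2, ?_⟩
    simp only [dif_pos l.2]
    exact congrArg Subtype.val hl
  · intro l hl h
    simp only [dif_pos hl] at h
    have h1 : ρ₀ ⟨l, hl⟩ = 1 := Subtype.ext h
    have h2 : (⟨l, hl⟩ : L) ∈ ρ₀.ker := h1
    rw [hker, mem_subgroupOf] at h2
    have : l ∈ L ⊓ centralizer (V : Set G) := ⟨hl, h2⟩
    rw [hf] at this
    exact mem_bot.mp this

variable {V L T : Subgroup G} {φ : G → Fin 2 → F} {ρ : G → Matrix (Fin 2) (Fin 2) F}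

theorem Nat1.φ_one (N : Nat1 V L φ ρ) : φ 1 = 0 := by
  have h := N.add 1 V.one_mem 1 V.one_mem
  rw [mul_one] at h
  exact left_eq_add.mp h

theorem Nat1.φ_inv (N : Nat1 V L φ ρ) {v : G} (hv : v ∈ V) : φ v⁻¹ = - φ v := by
  have h := N.add v hv v⁻¹ (V.inv_mem hv)
  rw [mul_inv_cancel, N.φ_one] at h
  exact (neg_eq_of_add_eq_zero_right h.symm).symm

theorem Nat1.eq_of_φ (N : Nat1 V L φ ρ) {v w : G} (hv : v ∈ V) (hw : w ∈ V) (h : φ v = φ w) :
    v = w := N.bij.injOn hv hw h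

theorem Nat1.exists_φ (N : Nat1 V L φ ρ) (x : Fin 2 → F) : ∃ v ∈ V, φ v = x := by
  obtain ⟨v, hv, h⟩ := N.bij.surjOn (Set.mem_univ x)
  exact ⟨v, hv, h⟩

theorem Nat1.V_comm (N : Nat1 V L φ ρ) {v w : G} (hv : v ∈ V) (hw : w ∈ V) : v * w = w * v := by
  apply N.eq_of_φ (V.mul_mem hv hw) (V.mul_mem hw hv)
  rw [N.add _ hv _ hw, N.add _ hw _ hv, add_comm]

theorem Nat1.ρ_one (N : Nat1 V L φ ρ) : ρ 1 = 1 := by
  have h := N.mul 1 L.one_mem 1 L.one_mem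
  rw [mul_one] at h
  have hu : IsUnit (ρ 1).det := by
    rw [N.det 1 L.one_mem]
    exact isUnit_one
  have h2 : (ρ 1)⁻¹ * ρ 1 = (ρ 1)⁻¹ * (ρ 1 * ρ 1) := by rw [← h]
  rw [← Matrix.mul_assoc, Matrix.nonsing_inv_mul _ hu, Matrix.one_mul] at h2
  exact h2.symm

theorem Nat1.ρ_pow (N : Nat1 V L φ ρ) {l : G} (hl : l ∈ L) (k : ℕ) : ρ (l ^ k) = ρ l ^ k := by
  induction k with
  | zero => simp [N.ρ_one]
  | succ k ih => rw [pow_succ, N.mul _ (L.pow_mem hl k) _ hl, ih, pow_succ]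

theorem Nat1.ρ_inj (N : Nat1 V L φ ρ) {l m : G} (hl : l ∈ L) (hm : m ∈ L) (h : ρ l = ρ m) :
    l = m := by
  have h1 : ρ (m⁻¹ * m) = 1 := by rw [inv_mul_cancel, N.ρ_one]
  rw [N.mul _ (L.inv_mem hm) _ hm, ← h, ← N.mul _ (L.inv_mem hm) _ hl] at h1
  have := N.inj _ (L.mul_mem (L.inv_mem hm) hl) h1
  exact (inv_mul_eq_one.mp this).symm

theorem Nat1.conj (N : Nat1 V L φ ρ) (h k : Matrix (Fin 2) (Fin 2) F) (hk : h * k = 1)
    (kh : k * h = 1) : Nat1 V L (fun g => k.mulVec (φ g)) (fun g => k * ρ g * h) := by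
  have hdet : k.det * h.det = 1 := by rw [← Matrix.det_mul, kh, Matrix.det_one]
  refine ⟨N.norm, ⟨fun _ _ => Set.mem_univ _, ?_, ?_⟩, ?_, ?_, ?_, ?_, ?_, ?_⟩
  · intro v hv w hw e
    apply N.bij.injOn hv hw
    have e2 : h.mulVec (k.mulVec (φ v)) = h.mulVec (k.mulVec (φ w)) := congrArg h.mulVec e
    rwa [Matrix.mulVec_mulVec, Matrix.mulVec_mulVec, hk, Matrix.one_mulVec,
      Matrix.one_mulVec] at e2
  · intro x _
    obtain ⟨v, hv, e⟩ := N.exists_φ (h.mulVec x)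
    refine ⟨v, hv, ?_⟩
    change k.mulVec (φ v) = x
    rw [e, Matrix.mulVec_mulVec, kh, Matrix.one_mulVec]
  · intro v hv w hw
    change k.mulVec (φ (v * w)) = k.mulVec (φ v) + k.mulVec (φ w)
    rw [N.add v hv w hw, Matrix.mulVec_add]
  · intro l hl v hv
    change k.mulVec (φ (l * v * l⁻¹)) = (k * ρ l * h).mulVec (k.mulVec (φ v))
    rw [N.act l hl v hv, Matrix.mulVec_mulVec, Matrix.mulVec_mulVec, Matrix.mul_assoc (k * ρ l), hk,
      Matrix.mul_one]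
  · intro l hl
    change (k * ρ l * h).det = 1
    rw [Matrix.det_mul, Matrix.det_mul, N.det l hl, mul_one, hdet]
  · intro l hl m hm
    change k * ρ (l * m) * h = k * ρ l * h * (k * ρ m * h)
    rw [N.mul l hl m hm]
    calc k * (ρ l * ρ m) * h = k * ρ l * 1 * ρ m * h := by
          simp only [Matrix.mul_assoc, Matrix.one_mul]
      _ = k * ρ l * (h * k) * ρ m * h := by rw [hk]
      _ = _ := by simp only [Matrix.mul_assoc]
  · intro M hM
    obtain ⟨l, hl, e⟩ := N.surj (h * M * k) (by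
      rw [Matrix.det_mul, Matrix.det_mul, hM, mul_one, mul_comm, hdet])
    refine ⟨l, hl, ?_⟩
    change k * ρ l * h = M
    rw [e]
    calc k * (h * M * k) * h = (k * h) * M * (k * h) := by simp only [Matrix.mul_assoc]
      _ = M := by rw [kh, Matrix.one_mul, Matrix.mul_one]
  · intro l hl e
    apply N.inj l hl
    have e' : k * ρ l * h = 1 := e
    calc ρ l = (h * k) * ρ l * (h * k) := by rw [hk, Matrix.one_mul, Matrix.mul_one]
      _ = h * (k * ρ l * h) * k := by simp only [Matrix.mul_assoc]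
      _ = 1 := by rw [e', Matrix.mul_one, hk]

theorem exists_normalise (e : Fin 2 → F) (he : e ≠ 0) :
    ∃ h k : Matrix (Fin 2) (Fin 2) F, h * k = 1 ∧ k * h = 1 ∧ k.mulVec e = ![1, 0] := by
  by_cases ha : e 0 = 0
  · have hc : e 1 ≠ 0 := by
      intro hc
      apply he
      funext i
      fin_cases i
      · exact ha
      · exact hc
    refine ⟨!![0, -(e 1)⁻¹; e 1, 0], !![0, (e 1)⁻¹; -(e 1), 0], ?_, ?_, ?_⟩
    · ext i j
      fin_cases i <;> fin_cases j <;> simp [Matrix.mul_apply, Fin.sum_univ_two, hc]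
    · ext i j
      fin_cases i <;> fin_cases j <;> simp [Matrix.mul_apply, Fin.sum_univ_two, hc]
    · funext i
      fin_cases i <;> simp [Matrix.mulVec, dotProduct, Fin.sum_univ_two, hc, ha]
  · refine ⟨!![e 0, 0; e 1, (e 0)⁻¹], !![(e 0)⁻¹, 0; -(e 1), e 0], ?_, ?_, ?_⟩
    · ext i j
      fin_cases i <;> fin_cases j <;> simp [Matrix.mul_apply, Fin.sum_univ_two, ha]
      ring
    · ext i j
      fin_cases i <;> fin_cases j <;> simp [Matrix.mul_apply, Fin.sum_univ_two, ha]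
      ring
    · funext i
      fin_cases i <;> simp [Matrix.mulVec, dotProduct, Fin.sum_univ_two, ha]
      ring

end Cfsg.Agent.Lib.Helper3.NatSL2
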