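import Mathlib
import Cfsg.Agent.Lib.Helper3.NatSL2.Basic

/-!
# Natural `SL₂(F)`-modules: a Sylow `p`-subgroup is the unitriangular group in suitable coordinates
-/

set_option autoImplicit false

namespace Cfsg.Agent.Lib.Helper3.NatSL2

open Subgroup Matrix

variable {G : Type*} [Group G] {F : Type*} [Field F]

structure Nat2 (V L T : Subgroup G) (φ : G → Fin 2 → F) (ρ : G → Matrix (Fin 2) (Fin 2) F) :
    Prop where
  base : Nat1 V L φ ρ
  TL : T ≤ L
  memT : ∀ l ∈ L, l ∈ T ↔ ρ l 0 0 = 1 ∧ ρ l 1 0 = 0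

theorem eq_unitri (M : Matrix (Fin 2) (Fin 2) F) (hd : M.det = 1) (h0 : M 0 0 = 1)
    (h1 : M 1 0 = 0) : M = !![1, M 0 1; 0, 1] := by
  rw [Matrix.det_fin_two, h0, h1] at hd
  have h11 : M 1 1 = 1 := by linear_combination hd
  ext i j
  fin_cases i <;> fin_cases j <;> simp [h0, h1, h11]

theorem pow_unitri (b : F) (k : ℕ) :
    (!![1, b; 0, 1] : Matrix (Fin 2) (Fin 2) F) ^ k = !![1, (k : F) * b; 0, 1] := by
  induction k with
  | zero =>
    ext i j
    fin_cases i <;> fin_cases j <;> simp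
  | succ k ih =>
    rw [pow_succ, ih]
    ext i j
    fin_cases i <;> fin_cases j <;> simp [Matrix.mul_apply, Fin.sum_univ_two]
    ring

theorem mulVec_e1 (M : Matrix (Fin 2) (Fin 2) F) : M.mulVec ![1, 0] = ![M 0 0, M 1 0] := by
  funext i
  fin_cases i <;> simp [Matrix.mulVec, dotProduct, Fin.sum_univ_two]

theorem exists_nat2 [Finite G] {p : ℕ} [Fact p.Prime] [Fintype F] (n : ℕ)
    (hF : Fintype.card F = p ^ n) (V L : Subgroup G) (hnat : Cfsg.IsNaturalSL2Module F V L)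
    (hf : L ⊓ centralizer (V : Set G) = ⊥) (S : Sylow p ↥L) (T : Subgroup G)
    (hT : T = ((S : Subgroup ↥L).map L.subtype)) :
    ∃ (φ : G → Fin 2 → F) (ρ : G → Matrix (Fin 2) (Fin 2) F), Nat2 V L T φ ρ := by
  classical
  obtain ⟨φ₀, ρ₀, N₀⟩ := nat1_of hnat hf
  have hch : CharP F p := charP_of_card_eq_prime_pow hF
  have hTL : T ≤ L := by
    rw [hT]
    exact map_subtype_le _
  have hTp : IsPGroup p T := by
    rw [hT]
    exact S.isPGroup'.map L.subtype
  have hcardV : Nat.card V = Fintype.card F ^ 2 := by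
    have e : (V : Set G) ≃ (Set.univ : Set (Fin 2 → F)) := Set.BijOn.equiv φ₀ N₀.bij
    have h1 : Nat.card V = Nat.card (Set.univ : Set (Fin 2 → F)) := Nat.card_congr e
    rw [h1, Nat.card_congr (Equiv.Set.univ _), Nat.card_eq_fintype_card, Fintype.card_fun,
      Fintype.card_fin]
  have hn0 : n ≠ 0 := by
    rintro rfl
    rw [pow_zero] at hF
    have := Fintype.one_lt_card (α := F)
    omega
  have hpV : p ∣ Nat.card V := by
    rw [hcardV, hF]
    exact dvd_pow (dvd_pow_self p hn0) (by norm_num)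
  let act : MulAction T V :=
    { smul := fun t v => ⟨t * v * (t : G)⁻¹, N₀.norm t (hTL t.2) v v.2⟩
      one_smul := fun v => Subtype.ext (by
        change ((1 : T) : G) * v * ((1 : T) : G)⁻¹ = v
        simp)
      mul_smul := fun a b v => Subtype.ext (by
        change ((a * b : T) : G) * v * ((a * b : T) : G)⁻¹ = a * (b * v * (b : G)⁻¹) * (a : G)⁻¹
        simp [mul_assoc]) }
  have h1 : (1 : V) ∈ MulAction.fixedPoints T V := by
    intro t
    apply Subtype.ext
    change (t : G) * ((1 : V) : G) * (t : G)⁻¹ = ((1 : V) : G)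
    simp
  obtain ⟨v₀, hv₀, hne⟩ := hTp.exists_fixed_point_of_prime_dvd_card_of_fixed_point V hpV h1
  have hfix : ∀ t ∈ T, t * v₀ * t⁻¹ = v₀ := fun t ht => congrArg Subtype.val (hv₀ ⟨t, ht⟩)
  have he : φ₀ v₀ ≠ 0 := by
    intro h
    apply hne
    apply Subtype.ext
    exact (N₀.eq_of_φ v₀.2 V.one_mem (h.trans N₀.φ_one.symm)).symm
  obtain ⟨h, k, hk, kh, hke⟩ := exists_normalise _ he
  have N := N₀.conj h k hk kh
  refine ⟨_, _, N, hTL, ?_⟩
  have key : ∀ l ∈ L, (l * v₀ * l⁻¹ = v₀ ↔ (k * ρ₀ l * h) 0 0 = 1 ∧ (k * ρ₀ l * h) 1 0 = 0) := by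
    intro l hl
    have ha := N.act l hl v₀ v₀.2
    simp only [hke, mulVec_e1] at ha
    constructor
    · intro e
      rw [e, hke] at ha
      have e0 := congrFun ha 0
      have e1 := congrFun ha 1
      simp at e0 e1
      exact ⟨e0.symm, e1.symm⟩
    · rintro ⟨e0, e1⟩
      apply N.eq_of_φ (N.norm l hl v₀ v₀.2) v₀.2
      rw [ha, hke, e0, e1]
  let Q : Subgroup L := (centralizer ({(v₀ : G)} : Set G)).subgroupOf L
  have hQmem : ∀ l : L, l ∈ Q ↔ (l : G) * v₀ * (l : G)⁻¹ = v₀ := by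
    intro l
    change (l : G) ∈ centralizer ({(v₀ : G)} : Set G) ↔ _
    rw [mem_centralizer_singleton_iff]
    constructor
    · intro e
      rw [e]
      group
    · intro e
      exact mul_inv_eq_iff_eq_mul.mp e
  have hQp : IsPGroup p Q := by
    intro g
    refine ⟨1, ?_⟩
    rw [pow_one]
    apply Subtype.ext
    apply Subtype.ext
    change ((g : L) : G) ^ p = 1
    have hgL : ((g : L) : G) ∈ L := (g : L).2
    obtain ⟨e0, e1⟩ := (key _ hgL).mp ((hQmem g).mp g.2)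
    apply N.inj _ (L.pow_mem hgL p)
    have hp : k * ρ₀ (((g : L) : G) ^ p) * h = (k * ρ₀ ((g : L) : G) * h) ^ p := N.ρ_pow hgL p
    change k * ρ₀ (((g : L) : G) ^ p) * h = 1
    rw [hp, eq_unitri _ (N.det _ hgL) e0 e1, pow_unitri, CharP.cast_eq_zero, zero_mul]
    ext i j
    fin_cases i <;> fin_cases j <;> simp
  have hSQ : (S : Subgroup L) ≤ Q := by
    intro s hs
    rw [hQmem]
    apply hfix
    rw [hT]
    exact ⟨s, hs, rfl⟩
  have hQS : Q = S := S.is_maximal' hQp hSQ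
  intro l hl
  rw [← key l hl, ← hQmem ⟨l, hl⟩, hQS, hT]
  constructor
  · rintro ⟨s, hs, rfl⟩
    exact hs
  · intro hs
    exact ⟨⟨l, hl⟩, hs, rfl⟩

end Cfsg.Agent.Lib.Helper3.NatSL2
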