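import Mathlib
import Cfsg.Agent.Lib.Helper3.NatSL2.Norm

/-!
# Natural `SL₂(F)`-modules: computations with the unitriangular Sylow subgroup
-/

set_option autoImplicit false

namespace Cfsg.Agent.Lib.Helper3.NatSL2

open Subgroup Matrix
open scoped commutatorElement

variable {G : Type*} [Group G] {F : Type*} [Field F]
variable {V L T : Subgroup G} {φ : G → Fin 2 → F} {ρ : G → Matrix (Fin 2) (Fin 2) F}

theorem mulVec_two (M : Matrix (Fin 2) (Fin 2) F) (x : Fin 2 → F) :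
    M.mulVec x = ![M 0 0 * x 0 + M 0 1 * x 1, M 1 0 * x 0 + M 1 1 * x 1] := by
  funext i
  fin_cases i <;> simp [Matrix.mulVec, dotProduct, Fin.sum_univ_two]

omit [Field F] in
theorem vec_ext {x y : Fin 2 → F} (h0 : x 0 = y 0) (h1 : x 1 = y 1) : x = y := by
  funext i
  fin_cases i
  · exact h0
  · exact h1

theorem Nat1.act0 (N : Nat1 V L φ ρ) {l v : G} (hl : l ∈ L) (hv : v ∈ V) :
    φ (l * v * l⁻¹) 0 = ρ l 0 0 * φ v 0 + ρ l 0 1 * φ v 1 := by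
  rw [N.act l hl v hv, mulVec_two]
  rfl

theorem Nat1.act1 (N : Nat1 V L φ ρ) {l v : G} (hl : l ∈ L) (hv : v ∈ V) :
    φ (l * v * l⁻¹) 1 = ρ l 1 0 * φ v 0 + ρ l 1 1 * φ v 1 := by
  rw [N.act l hl v hv, mulVec_two]
  rfl

theorem Nat1.ρ_inv (N : Nat1 V L φ ρ) {l : G} (hl : l ∈ L) :
    ρ l⁻¹ = !![ρ l 1 1, - ρ l 0 1; - ρ l 1 0, ρ l 0 0] := by
  have h1 : ρ l⁻¹ * ρ l = 1 := by
    rw [← N.mul _ (L.inv_mem hl) _ hl, inv_mul_cancel, N.ρ_one]
  have hd := N.det l hl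
  rw [Matrix.det_fin_two] at hd
  have h2 : ρ l * !![ρ l 1 1, - ρ l 0 1; - ρ l 1 0, ρ l 0 0] = 1 := by
    ext i j
    fin_cases i <;> fin_cases j <;> simp [Matrix.mul_apply, Fin.sum_univ_two]
    · linear_combination hd
    · ring
    · ring
    · linear_combination hd
  calc ρ l⁻¹ = ρ l⁻¹ * (ρ l * !![ρ l 1 1, - ρ l 0 1; - ρ l 1 0, ρ l 0 0]) := by
        rw [h2, Matrix.mul_one]
    _ = _ := by rw [← Matrix.mul_assoc, h1, Matrix.one_mul]

theorem Nat1.eq_one_of_φ (N : Nat1 V L φ ρ) {v : G} (hv : v ∈ V) (h0 : φ v 0 = 0)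
    (h1 : φ v 1 = 0) : v = 1 := by
  apply N.eq_of_φ hv V.one_mem
  rw [N.φ_one]
  exact vec_ext h0 h1

theorem Nat1.card_V (N : Nat1 V L φ ρ) [Fintype F] : Nat.card V = Fintype.card F ^ 2 := by
  have e : (V : Set G) ≃ (Set.univ : Set (Fin 2 → F)) := Set.BijOn.equiv φ N.bij
  have h1 : Nat.card V = Nat.card (Set.univ : Set (Fin 2 → F)) := Nat.card_congr e
  rw [h1, Nat.card_congr (Equiv.Set.univ _), Nat.card_eq_fintype_card, Fintype.card_fun,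
    Fintype.card_fin]

/-- An element of `L` fixing a nonidentity element of `V` has `p`-th power one. -/
theorem Nat1.pow_char_eq_one (N : Nat1 V L φ ρ) (p : ℕ) [CharP F p] {l v : G} (hl : l ∈ L)
    (hv : v ∈ V) (hne : v ≠ 1) (hfix : l * v * l⁻¹ = v) : l ^ p = 1 := by
  have he : φ v ≠ 0 := by
    intro h
    exact hne (N.eq_of_φ hv V.one_mem (h.trans N.φ_one.symm))
  obtain ⟨h, k, hk, kh, hke⟩ := exists_normalise _ he
  have N' := N.conj h k hk kh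
  have ha := N'.act l hl v hv
  simp only [hke, mulVec_e1, hfix] at ha
  have e0 := congrFun ha 0
  have e1 := congrFun ha 1
  simp at e0 e1
  apply N'.inj _ (L.pow_mem hl p)
  have hp : k * ρ (l ^ p) * h = (k * ρ l * h) ^ p := N'.ρ_pow hl p
  change k * ρ (l ^ p) * h = 1
  rw [hp, eq_unitri _ (N'.det _ hl) e0.symm e1.symm, pow_unitri, CharP.cast_eq_zero, zero_mul]
  ext i j
  fin_cases i <;> fin_cases j <;> simp

namespace Nat2

theorem ρT (N : Nat2 V L T φ ρ) {t : G} (ht : t ∈ T) : ρ t = !![1, ρ t 0 1; 0, 1] := by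
  obtain ⟨h0, h1⟩ := (N.memT t (N.TL ht)).mp ht
  exact eq_unitri _ (N.base.det t (N.TL ht)) h0 h1

theorem exists_T (N : Nat2 V L T φ ρ) (b : F) : ∃ t ∈ T, ρ t = !![1, b; 0, 1] := by
  obtain ⟨t, htL, ht⟩ := N.base.surj !![1, b; 0, 1] (by simp [Matrix.det_fin_two])
  refine ⟨t, (N.memT t htL).mpr ?_, ht⟩
  rw [ht]
  simp

theorem actT0 (N : Nat2 V L T φ ρ) {t v : G} (ht : t ∈ T) (hv : v ∈ V) :
    φ (t * v * t⁻¹) 0 = φ v 0 + ρ t 0 1 * φ v 1 := by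
  obtain ⟨h0, h1⟩ := (N.memT t (N.TL ht)).mp ht
  rw [N.base.act0 (N.TL ht) hv, h0, one_mul]

theorem actT1 (N : Nat2 V L T φ ρ) {t v : G} (ht : t ∈ T) (hv : v ∈ V) :
    φ (t * v * t⁻¹) 1 = φ v 1 := by
  have h := N.ρT ht
  have h10 : ρ t 1 0 = 0 := by rw [h]; simp
  have h11 : ρ t 1 1 = 1 := by rw [h]; simp
  rw [N.base.act1 (N.TL ht) hv, h10, h11, zero_mul, zero_add, one_mul]

theorem ne_zero_of_ne_one (N : Nat2 V L T φ ρ) {s : G} (hs : s ∈ T) (h1 : s ≠ 1) :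
    ρ s 0 1 ≠ 0 := by
  intro h
  apply h1
  apply N.base.inj s (N.TL hs)
  rw [N.ρT hs, h]
  ext i j
  fin_cases i <;> fin_cases j <;> simp

theorem commutes_iff (N : Nat2 V L T φ ρ) {s v : G} (hs : s ∈ T) (hv : v ∈ V) :
    s * v = v * s ↔ ρ s 0 1 * φ v 1 = 0 := by
  constructor
  · intro h
    have h2 : s * v * s⁻¹ = v := by rw [h]; group
    have h3 := N.actT0 hs hv
    rw [h2] at h3
    exact (left_eq_add.mp h3)
  · intro h
    have h2 : s * v * s⁻¹ = v := by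
      apply N.base.eq_of_φ (N.base.norm s (N.TL hs) v hv) hv
      apply vec_ext
      · rw [N.actT0 hs hv, h, add_zero]
      · exact N.actT1 hs hv
    exact mul_inv_eq_iff_eq_mul.mp h2

theorem mem_V1 (N : Nat2 V L T φ ρ) (v : G) :
    v ∈ V ⊓ centralizer (T : Set G) ↔ v ∈ V ∧ φ v 1 = 0 := by
  rw [mem_inf, mem_centralizer_iff]
  constructor
  · rintro ⟨hv, h⟩
    refine ⟨hv, ?_⟩
    obtain ⟨t, ht, e⟩ := N.exists_T 1
    have := (N.commutes_iff ht hv).mp (h t ht)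
    rw [e] at this
    simpa using this
  · rintro ⟨hv, h⟩
    refine ⟨hv, fun t ht => (N.commutes_iff ht hv).mpr ?_⟩
    rw [h, mul_zero]

theorem mem_Cs (N : Nat2 V L T φ ρ) {s : G} (hs : s ∈ T) (h1 : s ≠ 1) (v : G) :
    v ∈ V ⊓ centralizer ({s} : Set G) ↔ v ∈ V ∧ φ v 1 = 0 := by
  rw [mem_inf, mem_centralizer_singleton_iff]
  constructor
  · rintro ⟨hv, h⟩
    refine ⟨hv, ?_⟩
    have := (N.commutes_iff hs hv).mp h.symm
    exact (mul_eq_zero.mp this).resolve_left (N.ne_zero_of_ne_one hs h1)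
  · rintro ⟨hv, h⟩
    refine ⟨hv, ((N.commutes_iff hs hv).mpr ?_).symm⟩
    rw [h, mul_zero]

theorem comm_mem (N : Nat2 V L T φ ρ) {t v : G} (ht : t ∈ T) (hv : v ∈ V) :
    v * t * v⁻¹ * t⁻¹ ∈ V := by
  have : v * t * v⁻¹ * t⁻¹ = v * (t * v⁻¹ * t⁻¹) := by group
  rw [this]
  exact V.mul_mem hv (N.base.norm t (N.TL ht) _ (V.inv_mem hv))

theorem comm0 (N : Nat2 V L T φ ρ) {t v : G} (ht : t ∈ T) (hv : v ∈ V) :
    φ (v * t * v⁻¹ * t⁻¹) 0 = - (ρ t 0 1 * φ v 1) := by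
  have : v * t * v⁻¹ * t⁻¹ = v * (t * v⁻¹ * t⁻¹) := by group
  rw [this, N.base.add _ hv _ (N.base.norm t (N.TL ht) _ (V.inv_mem hv)), Pi.add_apply,
    N.actT0 ht (V.inv_mem hv), N.base.φ_inv hv]
  simp only [Pi.neg_apply]
  ring

theorem comm1 (N : Nat2 V L T φ ρ) {t v : G} (ht : t ∈ T) (hv : v ∈ V) :
    φ (v * t * v⁻¹ * t⁻¹) 1 = 0 := by
  have : v * t * v⁻¹ * t⁻¹ = v * (t * v⁻¹ * t⁻¹) := by group
  rw [this, N.base.add _ hv _ (N.base.norm t (N.TL ht) _ (V.inv_mem hv)), Pi.add_apply,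
    N.actT1 ht (V.inv_mem hv), N.base.φ_inv hv]
  simp only [Pi.neg_apply]
  ring

theorem comm_le (N : Nat2 V L T φ ρ) : ⁅V, T⁆ ≤ V ⊓ centralizer (T : Set G) := by
  rw [commutator_le]
  intro v hv t ht
  rw [commutatorElement_def, N.mem_V1]
  exact ⟨N.comm_mem ht hv, N.comm1 ht hv⟩

theorem le_comm_s (N : Nat2 V L T φ ρ) {s : G} (hs : s ∈ T) (h1 : s ≠ 1) :
    V ⊓ centralizer (T : Set G) ≤ ⁅V, zpowers s⁆ := by
  intro w hw
  obtain ⟨hwV, hw1⟩ := (N.mem_V1 w).mp hw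
  have hb := N.ne_zero_of_ne_one hs h1
  obtain ⟨v, hv, e⟩ := N.base.exists_φ ![0, - (φ w 0 / ρ s 0 1)]
  have : w = ⁅v, s⁆ := by
    rw [commutatorElement_def]
    apply N.base.eq_of_φ hwV (N.comm_mem hs hv)
    apply vec_ext
    · rw [N.comm0 hs hv, e]
      simp
      field_simp
    · rw [N.comm1 hs hv, hw1]
  rw [this]
  exact commutator_mem_commutator hv (mem_zpowers s)

theorem comm_s_le {s : G} (hs : s ∈ T) : ⁅V, zpowers s⁆ ≤ ⁅V, T⁆ :=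
  commutator_mono le_rfl ((zpowers_le).mpr hs)

theorem closure_eq (N : Nat2 V L T φ ρ) {v : G} (hv : v ∈ V) (hvT : v ∉ centralizer (T : Set G)) :
    closure {x : G | ∃ t ∈ T, x = v * t * v⁻¹ * t⁻¹} = V ⊓ centralizer (T : Set G) := by
  have hy : φ v 1 ≠ 0 := by
    intro h
    exact hvT ((N.mem_V1 v).mpr ⟨hv, h⟩).2
  apply le_antisymm
  · rw [closure_le]
    rintro x ⟨t, ht, rfl⟩
    exact (N.mem_V1 _).mpr ⟨N.comm_mem ht hv, N.comm1 ht hv⟩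
  · intro w hw
    obtain ⟨hwV, hw1⟩ := (N.mem_V1 w).mp hw
    obtain ⟨t, ht, e⟩ := N.exists_T (- (φ w 0 / φ v 1))
    apply Subgroup.subset_closure
    refine ⟨t, ht, ?_⟩
    apply N.base.eq_of_φ hwV (N.comm_mem ht hv)
    apply vec_ext
    · rw [N.comm0 ht hv, e]
      simp
      field_simp
    · rw [N.comm1 ht hv, hw1]

theorem card_V1 (N : Nat2 V L T φ ρ) [Fintype F] :
    Nat.card ↥(V ⊓ centralizer (T : Set G)) = Fintype.card F := by
  rw [← Nat.card_eq_fintype_card]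
  apply Nat.card_congr
  refine Equiv.ofBijective (fun v => φ v.1 0) ⟨?_, ?_⟩
  · intro v w h
    obtain ⟨hv, hv1⟩ := (N.mem_V1 v.1).mp v.2
    obtain ⟨hw, hw1⟩ := (N.mem_V1 w.1).mp w.2
    apply Subtype.ext
    apply N.base.eq_of_φ hv hw
    exact vec_ext h (hv1.trans hw1.symm)
  · intro x
    obtain ⟨v, hv, e⟩ := N.base.exists_φ ![x, 0]
    refine ⟨⟨v, (N.mem_V1 v).mpr ⟨hv, by rw [e]; rfl⟩⟩, ?_⟩
    change φ v 0 = x
    rw [e]
    rfl

end Nat2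

end Cfsg.Agent.Lib.Helper3.NatSL2
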