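import Mathlib
import Cfsg.Agent.Lib.Helper3.NatSL2.Comp

/-!
# Natural `SL₂(F)`-modules: decomposition and irreducibility computations (S2780)
-/

set_option autoImplicit false

namespace Cfsg.Agent.Lib.Helper3.NatSL2

open Subgroup Matrix

variable {G : Type*} [Group G] {F : Type*} [Field F]
variable {V L T : Subgroup G} {φ : G → Fin 2 → F} {ρ : G → Matrix (Fin 2) (Fin 2) F}

namespace Nat2

theorem conj_mem_T (N : Nat2 V L T φ ρ) {g : G} (hg : g ∈ L) (hc : ρ g 1 0 = 0) {t : G}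
    (ht : t ∈ T) : g * t * g⁻¹ ∈ T := by
  have htL := N.TL ht
  have hd := N.base.det g hg
  rw [Matrix.det_fin_two, hc, mul_zero, sub_zero] at hd
  rw [N.memT _ (L.mul_mem (L.mul_mem hg htL) (L.inv_mem hg)),
    N.base.mul _ (L.mul_mem hg htL) _ (L.inv_mem hg), N.base.mul _ hg _ htL, N.base.ρ_inv hg,
    N.ρT ht]
  constructor
  · simp [Matrix.mul_apply, Fin.sum_univ_two, hc, hd]
  · simp [Matrix.mul_apply, Fin.sum_univ_two, hc]

theorem mem_normalizer (N : Nat2 V L T φ ρ) {g : G} (hg : g ∈ L) (hc : ρ g 1 0 = 0) :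
    g ∈ normalizer (T : Set G) := by
  rw [mem_normalizer_iff]
  intro t
  constructor
  · exact fun ht => N.conj_mem_T hg hc ht
  · intro ht
    have hc' : ρ g⁻¹ 1 0 = 0 := by
      rw [N.base.ρ_inv hg]
      simp [hc]
    have := N.conj_mem_T (L.inv_mem hg) hc' ht
    have e : g⁻¹ * (g * t * g⁻¹) * g⁻¹⁻¹ = t := by group
    rwa [e] at this

theorem mem_V2 (N : Nat2 V L T φ ρ) {g : G} (hg : g ∈ L) (v : G) :
    v ∈ V ⊓ centralizer ((T.map (MulAut.conj g).toMonoidHom : Subgroup G) : Set G) ↔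
      v ∈ V ∧ ρ g 0 0 * φ v 1 = ρ g 1 0 * φ v 0 := by
  have key : ∀ v ∈ V, (v ∈ centralizer ((T.map (MulAut.conj g).toMonoidHom : Subgroup G) : Set G) ↔
      g⁻¹ * v * g⁻¹⁻¹ ∈ V ⊓ centralizer (T : Set G)) := by
    intro v hv
    rw [mem_inf, mem_centralizer_iff, mem_centralizer_iff]
    constructor
    · intro h
      refine ⟨N.base.norm _ (L.inv_mem hg) v hv, fun t ht => ?_⟩
      have := h (g * t * g⁻¹) ⟨t, ht, by simp⟩
      calc t * (g⁻¹ * v * g⁻¹⁻¹) = g⁻¹ * ((g * t * g⁻¹) * v) * g := by group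
        _ = g⁻¹ * (v * (g * t * g⁻¹)) * g := by rw [this]
        _ = _ := by group
    · rintro ⟨-, h⟩ x ⟨t, ht, rfl⟩
      have := h t ht
      change g * t * g⁻¹ * v = v * (g * t * g⁻¹)
      calc g * t * g⁻¹ * v = g * (t * (g⁻¹ * v * g⁻¹⁻¹)) * g⁻¹ := by group
        _ = g * ((g⁻¹ * v * g⁻¹⁻¹) * t) * g⁻¹ := by rw [this]
        _ = _ := by group
  rw [mem_inf]
  constructor
  · rintro ⟨hv, h⟩
    refine ⟨hv, ?_⟩
    obtain ⟨-, h1⟩ := (N.mem_V1 _).mp ((key v hv).mp h)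
    rw [N.base.act1 (L.inv_mem hg) hv, N.base.ρ_inv hg] at h1
    simp at h1
    linear_combination h1
  · rintro ⟨hv, h⟩
    refine ⟨hv, (key v hv).mpr ((N.mem_V1 _).mpr ⟨N.base.norm _ (L.inv_mem hg) v hv, ?_⟩)⟩
    rw [N.base.act1 (L.inv_mem hg) hv, N.base.ρ_inv hg]
    simp
    linear_combination h

theorem inf_eq_bot (N : Nat2 V L T φ ρ) {g : G} (hg : g ∈ L) (hc : ρ g 1 0 ≠ 0) :
    (V ⊓ centralizer (T : Set G)) ⊓
      (V ⊓ centralizer ((T.map (MulAut.conj g).toMonoidHom : Subgroup G) : Set G)) = ⊥ := by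
  rw [eq_bot_iff]
  intro v hv
  obtain ⟨h1, h2⟩ := mem_inf.mp hv
  obtain ⟨hvV, hy⟩ := (N.mem_V1 v).mp h1
  obtain ⟨-, he⟩ := (N.mem_V2 hg v).mp h2
  rw [hy, mul_zero] at he
  rw [mem_bot]
  exact N.base.eq_one_of_φ hvV ((mul_eq_zero.mp he.symm).resolve_left hc) hy

theorem sup_eq (N : Nat2 V L T φ ρ) {g : G} (hg : g ∈ L) (hc : ρ g 1 0 ≠ 0) :
    (V ⊓ centralizer (T : Set G)) ⊔
      (V ⊓ centralizer ((T.map (MulAut.conj g).toMonoidHom : Subgroup G) : Set G)) = V := by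
  apply le_antisymm (sup_le inf_le_left inf_le_left)
  intro v hv
  obtain ⟨w, hw, ew⟩ := N.base.exists_φ ![ρ g 0 0 * φ v 1 / ρ g 1 0, φ v 1]
  obtain ⟨u, hu, eu⟩ := N.base.exists_φ ![φ v 0 - ρ g 0 0 * φ v 1 / ρ g 1 0, 0]
  have e : v = u * w := by
    apply N.base.eq_of_φ hv (V.mul_mem hu hw)
    rw [N.base.add u hu w hw, eu, ew]
    apply vec_ext <;> simp
  rw [e]
  apply mul_mem_sup
  · exact (N.mem_V1 u).mpr ⟨hu, by rw [eu]; rfl⟩
  · refine (N.mem_V2 hg w).mpr ⟨hw, ?_⟩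
    rw [ew]
    simp
    field_simp

theorem exists_diag (N : Nat2 V L T φ ρ) {a : F} (ha : a ≠ 0) :
    ∃ d ∈ L ⊓ normalizer (T : Set G), ρ d = !![a, 0; 0, a⁻¹] := by
  obtain ⟨d, hd, e⟩ := N.base.surj !![a, 0; 0, a⁻¹] (by simp [Matrix.det_fin_two, ha])
  exact ⟨d, ⟨hd, N.mem_normalizer hd (by rw [e]; simp)⟩, e⟩

theorem irred1 (N : Nat2 V L T φ ρ) (U : Subgroup G) (hU : U ≤ V ⊓ centralizer (T : Set G))
    (hn : L ⊓ normalizer (T : Set G) ≤ normalizer (U : Set G)) :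
    U = ⊥ ∨ U = V ⊓ centralizer (T : Set G) := by
  by_cases hb : U = ⊥
  · exact Or.inl hb
  right
  apply le_antisymm hU
  obtain ⟨⟨u, hu⟩, hu1⟩ := (U.ne_bot_iff_exists_ne_one).mp hb
  have hu1' : u ≠ 1 := fun h => hu1 (Subtype.ext h)
  obtain ⟨huV, huy⟩ := (N.mem_V1 u).mp (hU hu)
  have hx : φ u 0 ≠ 0 := fun h => hu1' (N.base.eq_one_of_φ huV h huy)
  intro w hw
  obtain ⟨hwV, hwy⟩ := (N.mem_V1 w).mp hw
  by_cases hw0 : φ w 0 = 0
  · rw [N.base.eq_one_of_φ hwV hw0 hwy]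
    exact U.one_mem
  obtain ⟨d, hd, e⟩ := N.exists_diag (div_ne_zero hw0 hx)
  have h1 : d * u * d⁻¹ ∈ U := (mem_normalizer_iff.mp (hn hd) u).mp hu
  have h2 : w = d * u * d⁻¹ := by
    apply N.base.eq_of_φ hwV (N.base.norm d hd.1 u huV)
    apply vec_ext
    · rw [N.base.act0 hd.1 huV, e, huy]
      simp
      field_simp
    · rw [N.base.act1 hd.1 huV, e, huy, hwy]
      simp
  rw [h2]
  exact h1

theorem irred2 (N : Nat2 V L T φ ρ) (U : Subgroup G) (hU : V ⊓ centralizer (T : Set G) ≤ U)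
    (hUV : U ≤ V) (hn : L ⊓ normalizer (T : Set G) ≤ normalizer (U : Set G)) :
    U = V ⊓ centralizer (T : Set G) ∨ U = V := by
  by_cases hb : U ≤ V ⊓ centralizer (T : Set G)
  · exact Or.inl (le_antisymm hb hU)
  right
  apply le_antisymm hUV
  obtain ⟨u, hu, hu1⟩ := SetLike.not_le_iff_exists.mp hb
  have huV := hUV hu
  have hy : φ u 1 ≠ 0 := fun h => hu1 ((N.mem_V1 u).mpr ⟨huV, h⟩)
  intro w hwV
  by_cases hw1 : φ w 1 = 0
  · exact hU ((N.mem_V1 w).mpr ⟨hwV, hw1⟩)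
  obtain ⟨d, hd, e⟩ := N.exists_diag (div_ne_zero hy hw1)
  have h1 : d * u * d⁻¹ ∈ U := (mem_normalizer_iff.mp (hn hd) u).mp hu
  have h1V := N.base.norm d hd.1 u huV
  have h2 : w * (d * u * d⁻¹)⁻¹ ∈ U := by
    apply hU
    refine (N.mem_V1 _).mpr ⟨V.mul_mem hwV (V.inv_mem h1V), ?_⟩
    rw [N.base.add _ hwV _ (V.inv_mem h1V), N.base.φ_inv h1V, Pi.add_apply, Pi.neg_apply,
      N.base.act1 hd.1 huV, e]
    simp
    field_simp
    ring
  have h3 := U.mul_mem h2 h1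
  rwa [inv_mul_cancel_right] at h3

end Nat2

end Cfsg.Agent.Lib.Helper3.NatSL2
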